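import Mathlib
import Cfsg.Agent.S0175
import Cfsg.Agent.Lib.Char.Monomial
import Cfsg.Agent.Lib.S3Fpf.Chars

/-!
# A group with an abelian normal subgroup of prime power index is an M-group; Taketa's bound

* `exists_monomial_of_abelian_pow`: an abelian normal subgroup of prime power index gives an M-group.
* `taketa_step`: the inductive step of Taketa's theorem.
* `derivedSeries_three_of_monomial`: an M-group with at most three degrees has derived length
  at most three.
-/

set_option autoImplicit false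
set_option linter.style.haveILetI false

namespace Cfsg.Agent.Lib.Char.ThreeDeg

open Cfsg Cfsg.Agent.Lib.Char Cfsg.Agent.Lib.Char.Basic Cfsg.Agent.Lib.Char.Ortho
  Cfsg.Agent.Lib.Char.Induced Cfsg.Agent.Lib.Char.Monomial Cfsg.Agent.Lib.Char.LinearChars
open scoped ComplexConjugate

universe u

/-- **An abelian normal subgroup of prime power index gives an M-group.** -/
theorem exists_monomial_of_abelian_pow {p : ℕ} (hp : p.Prime) : ∀ (m : ℕ) (G : Type u) [Group G]
    [Fintype G] (A : Subgroup G) [A.Normal], (∀ a ∈ A, ∀ b ∈ A, a * b = b * a) →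
    (∃ k, A.index = p ^ k) → Nat.card G = m → ∀ χ : G → ℂ, IsIrrCharacter G χ →
    ∃ (H : Subgroup G) (lam : H →* ℂˣ), χ = indFun H (fun h => ((lam h : ℂˣ) : ℂ)) := by
  intro m
  induction m using Nat.strong_induction_on with
  | _ m ih =>
    intro G _ _ A hAn hab hk hm χ hχ
    classical
    haveI : Fact p.Prime := ⟨hp⟩
    obtain ⟨n, ρ, hirr, rfl⟩ := hχ
    haveI := hirr
    by_cases hZ : scalarSubgroup ρ = ⊤
    · have hdeg : n = 1 := eq_one_of_scalarSubgroup_eq_top ρ hZ
      subst hdeg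
      have h1 : ρ.character 1 = 1 := by
        rw [Representation.char_one]
        simp
      obtain ⟨φ, hφ⟩ := exists_hom_of_isCharacter_one (χ := ρ.character) ⟨1, ρ, rfl⟩ h1
      refine ⟨⊤, φ.comp (⊤ : Subgroup G).subtype, ?_⟩
      have hcl : IsClassFunction G ρ.character := fun g h => ρ.char_conj g h
      have := indFun_top hcl
      rw [hφ] at this ⊢
      exact this.symm
    · have key : ∃ T : Subgroup G, T ≠ ⊤ ∧ ∃ ψ : T → ℂ, IsIrrCharacter T ψ ∧
          indFun T ψ = ρ.character := by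
        by_cases hAZ : A ≤ scalarSubgroup ρ
        · have hnil : Group.IsNilpotent (G ⧸ scalarSubgroup ρ) := by
            obtain ⟨k, hk⟩ := hk
            have hd : (scalarSubgroup ρ).index ∣ p ^ k := by
              rw [← hk]
              exact Subgroup.index_dvd_of_le hAZ
            obtain ⟨j, -, hj⟩ := (Nat.dvd_prime_pow hp).1 hd
            have hP : IsPGroup p (G ⧸ scalarSubgroup ρ) := IsPGroup.of_card (n := j) hj
            exact hP.isNilpotent
          exact exists_indFun_of_nilpotent_quotient ρ hZ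
        · obtain ⟨a, haA, haZ⟩ := Set.not_subset.mp hAZ
          have hnt : Nontrivial (Fin n → ℂ) :=
            Cfsg.Agent.Lib.Char.Integrality.nontrivial_of_isIrreducible ρ
          obtain ⟨v, -, hv0, hv⟩ := Cfsg.Agent.Lib.S3Fpf.exists_common_eigenvector ρ A hab _ ⊤ rfl
            top_ne_bot (fun _ _ _ _ => trivial)
          obtain ⟨θ, hθ⟩ := exists_hom_of_eigen ρ A v hv0 hv
          exact exists_indFun_of_eigen ρ A θ v hv0 hθ ⟨a, haA⟩ (fun c hc => haZ ⟨c, hc⟩)
      obtain ⟨T, hT, ψ, hψ, hind⟩ := key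
      let _ : Fintype T := Fintype.ofFinite _
      have hcard : Nat.card T < m := hm ▸ card_lt_of_ne_top hT
      have hk' : ∃ k, (A.subgroupOf T).index = p ^ k := by
        obtain ⟨k, hk⟩ := hk
        have hd : (A.subgroupOf T).index ∣ p ^ k := by
          rw [← hk]
          exact Subgroup.relIndex_dvd_index_of_normal A T
        obtain ⟨j, -, hj⟩ := (Nat.dvd_prime_pow hp).1 hd
        exact ⟨j, hj⟩
      have hab' : ∀ a ∈ A.subgroupOf T, ∀ b ∈ A.subgroupOf T, a * b = b * a := fun a ha b hb =>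
        Subtype.ext (hab _ ha _ hb)
      obtain ⟨U, lam, hU⟩ := ih _ hcard T (A.subgroupOf T) hab' hk' rfl ψ hψ
      refine ⟨U.map T.subtype, lam.comp
        (U.equivMapOfInjective T.subtype T.subtype_injective).symm.toMonoidHom, ?_⟩
      rw [← hind, hU, ind_ind]
      rfl

variable {G : Type u} [Group G] [Fintype G]

/-- The step of Taketa's theorem. -/
theorem taketa_step
    (hM : ∀ χ : G → ℂ, IsIrrCharacter G χ → ∃ (H : Subgroup G) (lam : H →* ℂˣ),
      χ = indFun H (fun h => (lam h : ℂ))) (i k : ℕ)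
    (hi : ∀ ψ : IrrCharacter G, charDegree (ψ : G → ℂ) < k →
      ∀ x ∈ derivedSeries G i, (ψ : G → ℂ) x = (ψ : G → ℂ) 1)
    (χ : IrrCharacter G) (hk : charDegree (χ : G → ℂ) = k) :
    ∀ x ∈ derivedSeries G (i + 1), (χ : G → ℂ) x = (χ : G → ℂ) 1 := by
  classical
  intro x hx
  have hdegc : ∀ ψ : IrrCharacter G, ((charDegree (ψ : G → ℂ) : ℕ) : ℂ) = (ψ : G → ℂ) 1 := fun ψ =>
    Values.IsCharacter.charDegree_cast (Values.IsIrrCharacter.isCharacter ψ.2)
  obtain ⟨H, lam, hχH⟩ := hM χ χ.2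
  have hdeg : (χ : G → ℂ) 1 = (H.index : ℂ) := by
    rw [hχH, Induced.indFun_one]
    simp
  have hidx : H.index = k := by
    have : (H.index : ℂ) = (k : ℂ) := by rw [← hdeg, ← hdegc, hk]
    exact_mod_cast this
  set π : G → ℂ := indFun H (fun _ => (1 : ℂ)) with hπ
  have hπchar : IsCharacter G π :=
    IndRep.isCharacter_indFun H (Basic.isCharacter_one (G := H))
  obtain ⟨m, hm⟩ := Ortho.exists_nat_decomp hπchar
  let one : IrrCharacter G := ⟨fun _ => 1, Burnside2.isIrrCharacter_one⟩
  set deg : IrrCharacter G → ℕ := fun ψ => charDegree (ψ : G → ℂ) with hdegdef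
  have hdegeq : ∀ ψ : IrrCharacter G, (ψ : G → ℂ) 1 = (deg ψ : ℂ) := fun ψ => (hdegc ψ).symm
  have hdeg1 : deg one = 1 := by
    have h := hdegeq one
    have h2 : (one : G → ℂ) 1 = 1 := rfl
    rw [h2] at h
    exact_mod_cast h.symm
  have hm1 : m one = 1 := by
    have h1 : classInner π (one : G → ℂ) = 1 := by
      rw [hπ, Induced.frobenius_reciprocity H _ _ (fun _ _ => rfl)]
      rw [Induced.classInner_def]
      have h3 : ∀ h : H, (fun _ : H => (1 : ℂ)) h *
          (starRingEnd ℂ) ((one : G → ℂ) (h : G)) = 1 := by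
        intro h; simp [one]
      rw [Finset.sum_congr rfl (fun h _ => h3 h)]
      simp only [Finset.sum_const, Finset.card_univ, nsmul_eq_mul, mul_one,
        ← Nat.card_eq_fintype_card]
      exact inv_mul_cancel₀ Induced.natCard_ne_zero_complex
    have h2 : classInner π (one : G → ℂ) = (m one : ℂ) := by
      rw [hm]
      have := Ortho.classInner_sum_irr (fun χ => (m χ : ℂ)) one
      simpa only [Nat.cast_smul_eq_nsmul] using this
    rw [h1] at h2
    exact_mod_cast h2.symm
  have htot : ∑ ψ : IrrCharacter G, m ψ * deg ψ = k := by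
    have h1 : π 1 = (H.index : ℂ) := by
      rw [hπ, Induced.indFun_one]; simp
    rw [hm] at h1
    simp only [Finset.sum_apply, Pi.smul_apply] at h1
    simp only [hdegeq, nsmul_eq_mul] at h1
    rw [hidx] at h1
    exact_mod_cast h1
  have hsmall : ∀ ψ : IrrCharacter G, ψ ≠ one → m ψ ≠ 0 → deg ψ < k := by
    intro ψ hψ hmψ
    have h1 : m one * deg one + m ψ * deg ψ ≤ ∑ ψ : IrrCharacter G, m ψ * deg ψ := by
      rw [← Finset.add_sum_erase _ _ (Finset.mem_univ one)]
      refine Nat.add_le_add_left ?_ _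
      exact Finset.single_le_sum (f := fun ψ => m ψ * deg ψ) (fun _ _ => Nat.zero_le _)
        (Finset.mem_erase.2 ⟨hψ, Finset.mem_univ _⟩)
    rw [hm1, hdeg1, htot] at h1
    have h2 : deg ψ ≤ m ψ * deg ψ := Nat.le_mul_of_pos_left _ (Nat.pos_of_ne_zero hmψ)
    omega
  have hDH : derivedSeries G i ≤ H := by
    intro y hy
    apply Cfsg.Agent.S0175.mem_of_indFun_one_eq H y
    show π y = π 1
    rw [hm]
    simp only [Finset.sum_apply, Pi.smul_apply]
    refine Finset.sum_congr rfl fun ψ _ => ?_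
    by_cases hψ : ψ = one
    · subst hψ; rfl
    by_cases hmψ : m ψ = 0
    · simp [hmψ]
    · rw [hi ψ (hsmall ψ hψ hmψ) y hy]
  have hlam : ∀ y (hy : y ∈ derivedSeries G (i + 1)), (lam ⟨y, hDH (derivedSeries_antitone G
      (Nat.le_succ i) hy)⟩ : ℂˣ) = 1 := by
    have hle : derivedSeries G (i + 1) ≤ (lam.ker).map H.subtype := by
      rw [derivedSeries_succ, Subgroup.commutator_le]
      intro a ha b hb
      refine ⟨(⟨a, hDH ha⟩ : H) * (⟨b, hDH hb⟩ : H) * (⟨a, hDH ha⟩ : H)⁻¹ * (⟨b, hDH hb⟩ : H)⁻¹,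
        ?_, rfl⟩
      rw [SetLike.mem_coe, MonoidHom.mem_ker, map_mul, map_mul, map_mul, map_inv, map_inv]
      generalize lam (⟨a, hDH ha⟩ : H) = u
      generalize lam (⟨b, hDH hb⟩ : H) = v
      rw [mul_comm u v]; group
    intro y hy
    obtain ⟨z, hz, rfl⟩ := hle hy
    exact hz
  have hnorm : (derivedSeries G (i + 1)).Normal := derivedSeries_normal G (i + 1)
  rw [hχH, Induced.indFun_apply, Induced.indFun_apply]
  congr 1
  refine Finset.sum_congr rfl fun y _ => ?_
  have hy : y⁻¹ * x * y ∈ derivedSeries G (i + 1) := by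
    have := hnorm.conj_mem x hx y⁻¹
    simpa using this
  have hy1 : y⁻¹ * 1 * y ∈ H := by simp [H.one_mem]
  rw [Induced.extendByZero_of_mem H _ (hDH (derivedSeries_antitone G (Nat.le_succ i) hy)),
    Induced.extendByZero_of_mem H _ hy1]
  have hlam1 : (lam ⟨y⁻¹ * 1 * y, hy1⟩ : ℂˣ) = 1 := by
    have : (⟨y⁻¹ * 1 * y, hy1⟩ : H) = 1 := Subtype.ext (by simp)
    rw [this, map_one]
  simp only [hlam _ hy, hlam1]

/-- Taketa's bound, the ordered case. -/
theorem derivedSeries_three_of_monomial_of_le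
    (hM : ∀ χ : G → ℂ, IsIrrCharacter G χ → ∃ (H : Subgroup G) (lam : H →* ℂˣ),
      χ = indFun H (fun h => (lam h : ℂ))) {a b : ℕ} (hab : a ≤ b)
    (hcd : ∀ χ : IrrCharacter G, charDegree (χ : G → ℂ) = 1 ∨ charDegree (χ : G → ℂ) = a ∨
      charDegree (χ : G → ℂ) = b) : derivedSeries G 3 = ⊥ := by
  classical
  have hpos : ∀ ψ : IrrCharacter G, 0 < charDegree (ψ : G → ℂ) := by
    intro ψ
    obtain ⟨n, hn, h⟩ := irr_degree_pos ψ.2
    rw [Values.IsCharacter.charDegree_eq (Values.IsIrrCharacter.isCharacter ψ.2) h]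
    exact hn
  have C1 : ∀ χ : IrrCharacter G, charDegree (χ : G → ℂ) = 1 →
      ∀ x ∈ derivedSeries G 1, (χ : G → ℂ) x = (χ : G → ℂ) 1 := fun χ hχ =>
    taketa_step hM 0 1 (fun ψ hψ => absurd (hpos ψ) (by omega)) χ hχ
  have C2 : ∀ χ : IrrCharacter G, charDegree (χ : G → ℂ) = a →
      ∀ x ∈ derivedSeries G 2, (χ : G → ℂ) x = (χ : G → ℂ) 1 := fun χ hχ =>
    taketa_step hM 1 a (fun ψ hψ => C1 ψ (by
      rcases hcd ψ with h | h | h
      · exact h
      · omega
      · omega)) χ hχ
  have C3 : ∀ χ : IrrCharacter G, charDegree (χ : G → ℂ) = b →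
      ∀ x ∈ derivedSeries G 3, (χ : G → ℂ) x = (χ : G → ℂ) 1 := fun χ hχ =>
    taketa_step hM 2 b (fun ψ hψ x hx => by
      rcases hcd ψ with h | h | h
      · exact C1 ψ h x (derivedSeries_antitone G (by norm_num) hx)
      · exact C2 ψ h x hx
      · omega) χ hχ
  refine (Subgroup.eq_bot_iff_forall _).2 fun x hx => ?_
  have hconj : IsConj x 1 := by
    refine CompleteCor.isConj_of_forall_irr fun χ => ?_
    rcases hcd χ with h | h | h
    · exact C1 χ h x (derivedSeries_antitone G (by norm_num) hx)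
    · exact C2 χ h x (derivedSeries_antitone G (by norm_num) hx)
    · exact C3 χ h x hx
  exact isConj_one_right.1 hconj.symm

/-- Taketa's bound. -/
theorem derivedSeries_three_of_monomial
    (hM : ∀ χ : G → ℂ, IsIrrCharacter G χ → ∃ (H : Subgroup G) (lam : H →* ℂˣ),
      χ = indFun H (fun h => (lam h : ℂ))) {a b : ℕ}
    (hcd : ∀ χ : IrrCharacter G, charDegree (χ : G → ℂ) = 1 ∨ charDegree (χ : G → ℂ) = a ∨
      charDegree (χ : G → ℂ) = b) : derivedSeries G 3 = ⊥ := by
  rcases le_total a b with h | h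
  · exact derivedSeries_three_of_monomial_of_le hM h hcd
  · refine derivedSeries_three_of_monomial_of_le hM h fun χ => ?_
    rcases hcd χ with h1 | h1 | h1
    · exact Or.inl h1
    · exact Or.inr (Or.inr h1)
    · exact Or.inr (Or.inl h1)

end Cfsg.Agent.Lib.Char.ThreeDeg
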